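import Cfsg.Agent.H31.BR.PolRow
import Cfsg.Agent.H146.KW.CycGL

/-!
# S4829 : cyclic Sylow subgroups of the polar groups in linear type (helper162, BOX PF)

`isCyclic_of_inst` : `I : PolInst p Φ ρ ι ρ' π w ε K`, `d` the order of `q` modulo `p`, `d` odd, `d ≤ w < 2 d`.  A Sylow
`p`-subgroup of `G` fixes a maximal totally singular subspace `T` (their number `∏ (q^(i+ε) + 1)` is prime to `p`), and the
Sylow subgroups of `GL(T)` are cyclic.  Hypothesis `hinj` : a `p`-element of `G` trivial on `T` is trivial.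
-/

set_option autoImplicit false

open Module Subgroup Cfsg
open Cfsg.Agent.H2.Pol Cfsg.Agent.H674.BR Cfsg.Agent.H646.BR Cfsg.Agent.H145.BR Cfsg.Agent.H623.BR Cfsg.Agent.H31.BR

namespace Cfsg.Agent.H162.CY

universe u

variable {p : ℕ} [hp : Fact p.Prime] {F V : Type*} {G H : Type*} {S : Type u} [Field F] [Fintype F] [AddCommGroup V]
  [Module F V] [FiniteDimensional F V] [Group G] [Group H] [Group S] {Φ : Pol F V} {ρ : G →* (V ≃ₗ[F] V)} {ι : H →* G}
  {ρ' : H →* (V ≃ₗ[F] V)} {π : H →* S} {w ε K : ℕ}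

/-- the number of maximal totally singular subspaces is prime to `p` -/
theorem not_dvd_card_max (I : PolInst p Φ ρ ι ρ' π w ε K) (hp2 : p ≠ 2)
    (hodd : Odd (orderOf ((Nat.card F : ℕ) : ZMod p))) : ¬ p ∣ Nat.card (Φ.X w) := by
  have h1 := Arith.card_max (q := Nat.card F) Finite.one_lt_card I.card
  intro h
  rw [h1] at h
  obtain ⟨i, -, hi⟩ := (Prime.dvd_finsetProd_iff (Nat.prime_iff.mp hp.out) _).mp h
  exact Arith.not_dvd_add_one hp2 hodd _ hi

/-- a `p`-subgroup of `G` fixes a maximal totally singular subspace -/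
theorem exists_fixed [Finite G] (I : PolInst p Φ ρ ι ρ' π w ε K) (hp2 : p ≠ 2)
    (hodd : Odd (orderOf ((Nat.card F : ℕ) : ZMod p))) {P : Subgroup G} (hP : IsPGroup p P) :
    ∃ T : Φ.X w, ∀ g ∈ P, mv ρ g T.1 = T.1 := by
  let _ := actX ρ I.pres w
  have h1 := hP.card_modEq_card_fixedPoints (α := Φ.X w)
  have h2 : Nat.card (MulAction.fixedPoints P (Φ.X w)) ≠ 0 := by
    intro h0
    rw [h0] at h1
    exact not_dvd_card_max I hp2 hodd (Nat.modEq_zero_iff_dvd.1 h1)
  obtain ⟨T, hT⟩ := (Nat.card_pos_iff.1 (Nat.pos_of_ne_zero h2)).1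
  exact ⟨T, fun g hg => congrArg Subtype.val (hT ⟨g, hg⟩)⟩

/-- a `p`-group of `GL(T)` with `d ≤ dim T < 2 d` is cyclic -/
theorem isCyclic_of_equiv (hpq : ¬ p ∣ Nat.card F) {T : Submodule F V}
    (h1 : orderOf ((Nat.card F : ℕ) : ZMod p) ≤ finrank F T)
    (h2 : finrank F T < 2 * orderOf ((Nat.card F : ℕ) : ZMod p)) {P : Type*} [Group P] (hP : IsPGroup p P)
    (f : P →* (T ≃ₗ[F] T)) (hf : Function.Injective f) : IsCyclic P := by
  let b := Module.finBasis F T
  let e : (T ≃ₗ[F] T) →* GL (Fin (finrank F T)) F :=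
    (Units.map ((LinearMap.toMatrixAlgEquiv b : (T →ₗ[F] T) ≃ₐ[F] _) : (T →ₗ[F] T) →* _)).comp
      (LinearMap.GeneralLinearGroup.generalLinearEquiv F T).symm.toMonoidHom
  have he : Function.Injective e := by
    intro x y h
    apply (LinearMap.GeneralLinearGroup.generalLinearEquiv F T).symm.injective
    apply Units.ext
    exact (LinearMap.toMatrixAlgEquiv b).injective (congrArg Units.val h)
  have hq0 : 0 < Nat.card F := Nat.card_pos
  refine H146.KW.isCyclic_of_GL (l := p) (e := orderOf ((Nat.card F : ℕ) : ZMod p)) (ι := Fin (finrank F T))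
    (F := F) ?_ (Arith.order_pos hpq) (fun i => ?_) ?_ ?_ hP (e.comp f) (he.comp hf)
  · rwa [← Nat.card_eq_fintype_card]
  · rw [← Nat.card_eq_fintype_card]
    exact Arith.dvd_sub_one hq0 i
  · rwa [Fintype.card_fin]
  · rwa [Fintype.card_fin]

/-- **cyclic Sylow subgroups** -/
theorem isCyclic_of_inst [Finite S] [Finite G] (I : PolInst p Φ ρ ι ρ' π w ε K) (hp2 : p ≠ 2) (hpq : ¬ p ∣ Nat.card F)
    (hodd : Odd (orderOf ((Nat.card F : ℕ) : ZMod p))) (hw1 : orderOf ((Nat.card F : ℕ) : ZMod p) ≤ w)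
    (hw2 : w < 2 * orderOf ((Nat.card F : ℕ) : ZMod p))
    (hinj : ∀ (T : Φ.X w) (g : G), (∃ n : ℕ, g ^ p ^ n = 1) → (∀ t ∈ T.1, ρ g t = t) → g = 1) (P : Sylow p S) :
    IsCyclic P := by
  have _ : Finite H := Finite.of_injective ι I.inj
  obtain ⟨P1, rfl⟩ := Sylow.mapSurjective_surjective I.model.surj p P
  obtain ⟨P2, hP2⟩ := exists_sylow_map ι I.inj I.idx P1
  obtain ⟨T, hT⟩ := exists_fixed I hp2 hodd P2.2
  have hmem : ∀ g : (P1 : Subgroup H), ι g.1 ∈ stab ρ T.1 := fun g => hT _ (by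
    have h1 : ι g.1 ∈ (P1 : Subgroup H).map ι := ⟨g.1, g.2, rfl⟩
    rw [← hP2] at h1
    exact h1)
  let f : (P1 : Subgroup H) →* (T.1 ≃ₗ[F] T.1) :=
    (res ρ T.1).comp ((ι.comp (P1 : Subgroup H).subtype).codRestrict (stab ρ T.1) hmem)
  have hf : Function.Injective f := by
    rw [injective_iff_map_eq_one]
    intro g hg
    have h1 : ι g.1 = 1 := by
      refine hinj T _ ?_ fun t ht => ?_
      · obtain ⟨n, hn⟩ := P1.2 g
        refine ⟨n, ?_⟩
        rw [← map_pow]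
        have h2 : (g.1) ^ p ^ n = 1 := congrArg Subtype.val hn
        rw [h2, map_one]
      · have h3 := congrArg (fun a : (T.1 ≃ₗ[F] T.1) => ((a ⟨t, ht⟩ : T.1) : V)) hg
        exact h3
    apply Subtype.ext
    apply I.inj
    rw [h1]
    exact (map_one ι).symm
  have h3 : IsCyclic (P1 : Subgroup H) := by
    refine isCyclic_of_equiv hpq ?_ ?_ P1.2 f hf
    · rw [T.2.2]
      exact hw1
    · rw [T.2.2]
      exact hw2
  rw [Sylow.coe_mapSurjective]
  exact isCyclic_of_surjective (π.subgroupMap (P1 : Subgroup H)) (π.subgroupMap_surjective _)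

end Cfsg.Agent.H162.CY
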